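import Cfsg.Agent.H7.Maschke

/-! Coprime operators on abelian `p`-groups: indecomposable groups are homocyclic
(Gorenstein 5.2.2). -/

namespace H7

open Subgroup

variable {X V : Type*} [Group X] [CommGroup V] {p : ℕ}

theorem inv_comap_pow {φ : X →* MulAut V} {C : Subgroup V} (h : ∀ x, ∀ v ∈ C, φ x v ∈ C) (n : ℕ) :
    ∀ x, ∀ v ∈ C.comap (powMonoidHom n), φ x v ∈ C.comap (powMonoidHom n) := fun x v hv => by
  have := h x _ hv
  rwa [powMonoidHom_apply, map_pow] at this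

theorem inv_map_pow {φ : X →* MulAut V} {C : Subgroup V} (h : ∀ x, ∀ v ∈ C, φ x v ∈ C) (n : ℕ) :
    ∀ x, ∀ v ∈ C.map (powMonoidHom n), φ x v ∈ C.map (powMonoidHom n) := by
  rintro x _ ⟨v, hv, rfl⟩
  exact ⟨φ x v, h x v hv, (map_pow (φ x) v n).symm⟩

theorem inv_inf {φ : X →* MulAut V} {B C : Subgroup V} (hB : ∀ x, ∀ v ∈ B, φ x v ∈ B)
    (hC : ∀ x, ∀ v ∈ C, φ x v ∈ C) : ∀ x, ∀ v ∈ B ⊓ C, φ x v ∈ B ⊓ C :=
  fun x v hv => ⟨hB x v hv.1, hC x v hv.2⟩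

theorem inv_sup {φ : X →* MulAut V} {B C : Subgroup V} (hB : ∀ x, ∀ v ∈ B, φ x v ∈ B)
    (hC : ∀ x, ∀ v ∈ C, φ x v ∈ C) : ∀ x, ∀ v ∈ B ⊔ C, φ x v ∈ B ⊔ C := fun x v hv => by
  obtain ⟨b, hb, c, hc, rfl⟩ := mem_sup.1 hv
  rw [map_mul]
  exact mul_mem_sup (hB x b hb) (hC x c hc)

theorem inv_bot {φ : X →* MulAut V} : ∀ x, ∀ v ∈ (⊥ : Subgroup V), φ x v ∈ (⊥ : Subgroup V) :=
  fun x v hv => by rw [mem_bot.1 hv, map_one]; exact one_mem _

theorem exists_pow_not_mem_pow_mem {G : Type*} [Group G] (hG : IsPGroup p G) {C : Subgroup G}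
    {b : G} (hb : b ∉ C) : ∃ j, b ^ p ^ j ∉ C ∧ b ^ p ^ (j + 1) ∈ C := by
  by_contra h
  push Not at h
  have : ∀ j, b ^ p ^ j ∉ C := fun j => by
    induction j with
    | zero => simpa using hb
    | succ j ih => exact h j ih
  obtain ⟨k, hk⟩ := hG b
  exact this k (hk ▸ one_mem C)

/-- if `Ω₁(V / C)` is irreducible, the invariant subgroups of `V / C` are the `Ω_i(V / C)`. -/
theorem uniserial_of_irred [Finite V] [Fact p.Prime] (hV : IsPGroup p V) {φ : X →* MulAut V}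
    {C : Subgroup V} (hC : ∀ x, ∀ v ∈ C, φ x v ∈ C)
    (h : ∀ B : Subgroup V, (∀ x, ∀ v ∈ B, φ x v ∈ B) → C ≤ B → B ≤ C.comap (powMonoidHom p) →
      B = C ∨ B = C.comap (powMonoidHom p))
    {B : Subgroup V} (hB : ∀ x, ∀ v ∈ B, φ x v ∈ B) (hCB : C ≤ B) :
    ∃ i, B = C.comap (powMonoidHom (p ^ i)) := by
  by_contra hn
  push Not at hn
  have key : ∀ i, C.comap (powMonoidHom (p ^ i)) ≤ B := by
    intro i
    induction i with
    | zero => intro v hv; exact hCB (by simpa using hv)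
    | succ i ih =>
      obtain ⟨b, hb, hb'⟩ := SetLike.exists_of_lt (lt_of_le_of_ne ih (hn i).symm)
      obtain ⟨j, h1, h2⟩ := exists_pow_not_mem_pow_mem hV (C := C) (b := b ^ p ^ i) hb'
      rcases h ((B ⊓ C.comap (powMonoidHom (p ^ (i + 1)))).map (powMonoidHom (p ^ i)) ⊔ C)
        (inv_sup (inv_map_pow (inv_inf hB (inv_comap_pow hC _)) _) hC) le_sup_right
        (sup_le (by
          rintro _ ⟨v, hv, rfl⟩
          have := hv.2
          simpa [pow_succ, pow_mul] using this) fun c hc => pow_mem hc p) with h3 | h3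
      · refine absurd (h3.le (mem_sup_left ⟨b ^ p ^ j, ⟨pow_mem hb _, ?_⟩, ?_⟩)) h1
        · show (b ^ p ^ j) ^ p ^ (i + 1) ∈ C
          convert h2 using 1
          simp only [← pow_mul, ← pow_add]
          congr 2; omega
        · show (b ^ p ^ j) ^ p ^ i = _
          rw [pow_right_comm]
      · intro a ha
        have h4 : a ^ p ^ i ∈ C.comap (powMonoidHom p) := by
          have : a ^ p ^ (i + 1) ∈ C := ha
          simpa [pow_succ, pow_mul] using this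
        obtain ⟨_, ⟨v, hv, rfl⟩, c, hc, e⟩ := mem_sup.1 (h3.ge h4)
        rw [← mul_inv_cancel_left v a]
        refine mul_mem hv.1 (ih ?_)
        show (v⁻¹ * a) ^ p ^ i ∈ C
        rw [mul_pow, ← e, inv_pow, powMonoidHom_apply, inv_mul_cancel_left]
        exact hc
  obtain ⟨n, hn'⟩ := IsPGroup.iff_card.1 hV
  refine hn n (le_antisymm (fun v _ => ?_) (key n))
  show v ^ p ^ n ∈ C
  rw [← hn', pow_card_eq_one']
  exact one_mem C

/-- an abelian `p`-group with `p'`-operators splits off a homocyclic invariant factor `B` of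
the maximal exponent with `Ω₁(B)` irreducible. -/
theorem exists_homocyclic_factor [Finite V] [Nontrivial V] [Finite X] [hp : Fact p.Prime]
    (hV : IsPGroup p V) (φ : X →* MulAut V) (hc : (Nat.card X).Coprime p) :
    ∃ (B C : Subgroup V) (n : ℕ), (∀ x, ∀ v ∈ B, φ x v ∈ B) ∧ (∀ x, ∀ v ∈ C, φ x v ∈ C) ∧
      B ⊓ C = ⊥ ∧ B ⊔ C = ⊤ ∧ (∀ v : V, v ^ p ^ (n + 1) = 1) ∧
      B.map (powMonoidHom (p ^ n)) ≠ ⊥ ∧ (∀ b ∈ B, b ^ p = 1 → b ∈ B.map (powMonoidHom (p ^ n))) ∧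
      ∀ U : Subgroup V, (∀ x, ∀ v ∈ U, φ x v ∈ U) → U ≤ B.map (powMonoidHom (p ^ n)) →
        U = ⊥ ∨ U = B.map (powMonoidHom (p ^ n)) := by
  classical
  have hcomm : ∀ A B : Subgroup V, ⁅A, A⁆ ≤ B := fun A B => commutator_le.2 fun a _ b _ => by
    rw [commutatorElement_eq_one_iff_mul_comm.2 (mul_comm a b)]; exact one_mem B
  have hex : ∃ n, ∀ v : V, v ^ p ^ n = 1 := by
    obtain ⟨n, hn⟩ := IsPGroup.iff_card.1 hV
    exact ⟨n, fun v => hn ▸ pow_card_eq_one'⟩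
  obtain ⟨n, hn1, hn2⟩ : ∃ n, (∀ v : V, v ^ p ^ (n + 1) = 1) ∧ ¬ ∀ v : V, v ^ p ^ n = 1 := by
    have h0 : Nat.find hex ≠ 0 := fun h => by
      obtain ⟨v, hv⟩ := exists_ne (1 : V)
      have := Nat.find_spec hex v
      rw [h, pow_zero, pow_one] at this
      exact hv this
    obtain ⟨n, hn⟩ := Nat.exists_eq_succ_of_ne_zero h0
    exact ⟨n, (show n + 1 = Nat.find hex from hn.symm) ▸ Nat.find_spec hex,
      Nat.find_min hex (by omega)⟩
  obtain ⟨W, ⟨hW1, hW2⟩, hW3, hW4⟩ := H1.exists_minimal_le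
    (fun W : Subgroup V => (∀ x, ∀ v ∈ W, φ x v ∈ W) ∧ W ≠ ⊥)
    (N := (⊤ : Subgroup V).map (powMonoidHom (p ^ n)))
    ⟨inv_map_pow (fun _ _ _ => mem_top _) _, fun h => hn2 fun v => mem_bot.1 (h ▸ ⟨v, trivial, rfl⟩)⟩
  obtain ⟨B, ⟨hB1, hB2⟩, -, hB3⟩ := H1.exists_minimal_le
    (fun B : Subgroup V => (∀ x, ∀ v ∈ B, φ x v ∈ B) ∧ W ≤ B.map (powMonoidHom (p ^ n)))
    (N := ⊤) ⟨fun _ _ _ => trivial, hW3⟩
  have hB4 : B.map (powMonoidHom (p ^ n)) = W := by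
    refine le_antisymm (map_le_iff_le_comap.2 ?_) hB2
    refine inf_eq_left.1 (hB3 _ ⟨inv_inf hB1 (inv_comap_pow hW1 _), fun w hw => ?_⟩ inf_le_left)
    obtain ⟨b, hb, rfl⟩ := hB2 hw
    exact ⟨b, ⟨hb, hw⟩, rfl⟩
  have hK : B ⊓ (⊥ : Subgroup V).comap (powMonoidHom (p ^ n)) = B.map (powMonoidHom p) := by
    obtain ⟨E, h1, h2, h3, h4⟩ := maschke_section φ hp.out hc (D := B.map (powMonoidHom p))
      (E := B ⊓ (⊥ : Subgroup V).comap (powMonoidHom (p ^ n))) (F := B)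
      (by
        rintro _ ⟨b, hb, rfl⟩
        refine ⟨pow_mem hb p, ?_⟩
        show (b ^ p) ^ p ^ n ∈ (⊥ : Subgroup V)
        rw [← pow_mul, ← pow_succ', hn1]; exact one_mem _) inf_le_left (inv_map_pow hB1 _)
      (inv_inf hB1 (inv_comap_pow inv_bot _)) hB1 (hcomm _ _) fun v hv => ⟨v, hv, rfl⟩
    have h5 : E = B := by
      refine hB3 E ⟨h1, hB2.trans ?_⟩ (le_sup_right.trans h4.le)
      rw [← h4, Subgroup.map_sup]
      exact sup_le ((map_le_iff_le_comap.2 inf_le_right).trans bot_le) le_rfl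
    rwa [h5, inf_eq_left.2 inf_le_left] at h3
  have hΩ : ∀ b ∈ B, b ^ p = 1 → b ∈ W := by
    intro b hb hbp
    have : ∀ k ≤ n, b ∈ B.map (powMonoidHom (p ^ k)) := by
      intro k
      induction k with
      | zero => exact fun _ => ⟨b, hb, by simp⟩
      | succ k ih =>
        intro hk
        obtain ⟨c, hc, rfl⟩ := ih (by omega)
        obtain ⟨d, hd, rfl⟩ := hK.le (x := c) ⟨hc, by
          show c ^ p ^ n ∈ (⊥ : Subgroup V)
          obtain ⟨m, rfl⟩ := Nat.exists_eq_add_of_le hk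
          rw [pow_add, pow_mul, pow_succ, pow_mul]
          rw [powMonoidHom_apply] at hbp
          rw [hbp, one_pow]; exact one_mem _⟩
        exact ⟨d, hd, by simp [pow_succ', pow_mul]⟩
    exact hB4 ▸ this n le_rfl
  have hirr : ∀ U : Subgroup V, (∀ x, ∀ v ∈ U, φ x v ∈ U) → U ≤ W → U = ⊥ ∨ U = W :=
    fun U h1 h2 => or_iff_not_imp_left.2 fun h3 => hW4 U ⟨h1, h3⟩ h2
  obtain ⟨C, ⟨hC1, hC2⟩, -, hC3⟩ := H1.exists_maximal_ge
    (fun C : Subgroup V => (∀ x, ∀ v ∈ C, φ x v ∈ C) ∧ C ⊓ W = ⊥) (N := ⊥) ⟨inv_bot, bot_inf_eq W⟩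
  have hWp : ∀ w ∈ W, w ^ p = 1 := fun w hw => by
    obtain ⟨v, -, rfl⟩ := hW3 hw
    rw [powMonoidHom_apply, ← pow_mul, ← pow_succ, hn1]
  have hCW : C ⊔ W = C.comap (powMonoidHom p) := by
    obtain ⟨E, h1, h2, h3, h4⟩ := maschke_section φ hp.out hc (D := C) (E := C ⊔ W)
      (F := C.comap (powMonoidHom p)) le_sup_left
      (sup_le (fun c hc => pow_mem hc p) fun w hw => by
        show w ^ p ∈ C
        rw [hWp w hw]; exact one_mem C) hC1 (inv_sup hC1 hW1) (inv_comap_pow hC1 _) (hcomm _ _)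
      fun v hv => hv
    have h5 : E = C := hC3 E ⟨h1, eq_bot_iff.2 (hC2.le.trans' (le_inf
      (h3.le.trans' (le_inf (inf_le_right.trans le_sup_right) inf_le_left)) inf_le_right))⟩ h2
    rw [← h4, h5, sup_eq_left.2 le_sup_left]
  refine ⟨B, C, n, hB1, hC1, by_contra fun h => ?_, ?_, hn1, hB4 ▸ hW2, hB4 ▸ hΩ, hB4 ▸ hirr⟩
  · obtain ⟨⟨b, hb⟩, hb1⟩ := ne_bot_iff_exists_ne_one.1 h
    obtain ⟨j, h1, h2⟩ := exists_pow_not_mem_pow_mem hV (C := ⊥) (b := b)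
      fun e => hb1 (Subtype.ext e)
    exact h1 (hC2 ▸ mem_inf.2 ⟨pow_mem hb.2 _, hΩ _ (pow_mem hb.1 _)
      (by rw [← pow_mul, ← pow_succ]; exact h2)⟩)
  · obtain ⟨i, hi⟩ := uniserial_of_irred hV hC1 (B := B ⊔ C) (fun U h1 h2 h3 => by
      rw [← hCW] at h3 ⊢
      have h4 : U = C ⊔ (W ⊓ U) := by rw [← sup_inf_assoc_of_le _ h2, inf_eq_right.2 h3]
      rcases hirr (W ⊓ U) (inv_inf hW1 h1) inf_le_left with h5 | h5
      · left; rw [h4, h5, sup_bot_eq]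
      · right; rw [h4, h5]) (inv_sup hB1 hC1) le_sup_right
    rw [hi, eq_top_iff]
    rcases le_or_gt i n with h | h
    · refine absurd (eq_bot_iff.2 (hC2.le.trans' (le_inf ?_ le_rfl))) hW2
      rw [← hB4]
      rintro _ ⟨b, hb, rfl⟩
      obtain ⟨m, rfl⟩ := Nat.exists_eq_add_of_le h
      rw [powMonoidHom_apply, pow_add, pow_mul]
      exact pow_mem (show b ^ p ^ i ∈ C from hi.le (mem_sup_left hb)) _
    · intro v _
      obtain ⟨m, rfl⟩ := Nat.exists_eq_add_of_lt h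
      show v ^ p ^ (n + m + 1) ∈ C
      rw [show n + m + 1 = n + 1 + m by omega, pow_add, pow_mul, hn1, one_pow]
      exact one_mem C

end H7
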