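import Cfsg.Agent.H7.J4p
import Cfsg.Agent.H8.Schur3

/-! The Schur multiplier of `J4`. -/

set_option maxRecDepth 100000
set_option autoImplicit false

namespace H7.JS
open H27 H28 H7.J4 Cfsg Cfsg.Spor H29.J4m Subgroup

/-- the letters -/
def LX {G : Type} [Group G] (a b c : G) : List G := [a, a⁻¹, b, b⁻¹, c, c⁻¹]
noncomputable def w1 (w : List ℕ) : Bool := F42.eqW kmul kone cL w []

theorem word_one {w : List ℕ} (hw : w1 w = true) : ev (LX jx jy jt) w = 1 := by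
  have k : ∀ i, ∃ g, ar.gM.R (H29.lgetD ar.one cL i) g := fun i => by
    rcases H29.lgetD_mem_or ar.one cL i with h | h
    · obtain ⟨g, -, hg⟩ := ar.gM_in c0 _ h
      exact ⟨g, hg⟩
    · exact ⟨1, by rw [h]; exact ar.gM.R_one⟩
  choose Y hY using k
  have hY' : ∀ i, [Y 0, Y 1, Y 2, Y 3, Y 4, Y 5].getD i 1 = Y i := fun i => by
    rcases i with _ | _ | _ | _ | _ | _ | i
    iterate 6 rfl
    have := hY (i + 6)
    rw [H29.lgetD_eq, List.getD_eq_default _ _ (by simp [cL])] at this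
    exact (ar.gM.unique this ar.gM.R_one).symm
  have e : ∀ w, ar.gM.R (F42.evc ar.mul ar.one cL w) (ev [Y 0, Y 1, Y 2, Y 3, Y 4, Y 5] w) := fun w => by
    induction w with
    | nil => exact ar.gM.R_one
    | cons b w ih => rw [ev_cons, hY']; exact ar.gM.R_mul (hY b) ih
  obtain ⟨φ, hφ⟩ := jB.hom (ys := [Y 0, Y 1, Y 2, Y 3, Y 4, Y 5]) rfl fun w hw => ar.gM.eq_of (e w) (e []) (c1 w hw)
  have := H7.JD.j_main.2.1.1
  rcases φ.normal_ker.eq_bot_or_eq_top with h | h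
  · have h1 := ar.gM.eq_of (e w) (e []) hw
    rw [← hφ, ev_map, ev_nil] at h1
    exact mem_bot.1 (h.le h1)
  · refine absurd ?_ (ar.gM.ne_of (e [0]) (e []) c2)
    rw [← hφ, ev_map, ev_nil]
    exact h.ge (mem_top _)

theorem odd_lift {Γ : Type} [Group Γ] {a b : Γ} {Z : Subgroup Γ} (hc : Z ≤ center Γ) (hZ : ∀ z ∈ Z, z * z = 1)
    (hb : b * b = 1) (ha : a * a ∈ Z) {k : ℕ} (hn : (a * b) ^ (2 * k + 1) ∈ Z) : a * a = 1 := by
  have c1 := mem_center_iff.1 (hc ha)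
  have c2 := mem_center_iff.1 (hc hn)
  have h1 : b * (a * b) * b⁻¹ = (a * b)⁻¹ * (a * a) := by
    rw [inv_eq_of_mul_eq_one_right hb, mul_inv_rev, inv_eq_of_mul_eq_one_right hb]
    simp only [mul_assoc, hb, mul_one, inv_mul_cancel_left]
  have h2 := congrArg (· ^ (2 * k + 1)) h1
  simp only [conj_pow] at h2
  rw [Commute.mul_pow (c1 _), c2, mul_inv_cancel_right, inv_pow, eq_inv_mul_iff_mul_eq, hZ _ hn, pow_succ, pow_mul,
    sq, hZ _ ha, one_pow, one_mul] at h2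
  exact h2.symm

/-- an involution, a conjugating word, an involution of `M24` and half of the odd order -/
structure Qd where
  a : List ℕ
  h : List ℕ
  k : List ℕ
  n : ℕ
def ivl (g : ℕ) : ℕ := if g % 2 = 0 then g + 1 else g - 1
def iw (w : List ℕ) : List ℕ := (w.map ivl).reverse
noncomputable def kw (w : List ℕ) : Bool := w.all (· < 4) && w1 w
noncomputable def Qd.ok (q : Qd) : Bool := kw (q.k ++ q.k) && w1 (q.a ++ q.a) && w1 (pwW (2 * q.n + 1) (q.a ++ (q.h ++ q.k ++ iw q.h)))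
theorem ev_iw {G : Type} [Group G] (a b c : G) (w : List ℕ) : ev (LX a b c) (iw w) = (ev (LX a b c) w)⁻¹ := by
  induction w with
  | nil => simp [iw, ev_nil]
  | cons g w ih =>
    rw [iw, List.map_cons, List.reverse_cons, ev_append, ← iw, ih, ev_cons (w := w), mul_inv_rev, ev_single]
    congr 1
    rcases g with _ | _ | _ | _ | _ | _ | g
    iterate 6 simp [ivl, LX]
    rw [List.getD_eq_default _ _ (by simp only [ivl, LX]; split_ifs <;> simp <;> omega),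
      List.getD_eq_default _ _ (by simp [LX]), inv_one]
theorem ev_mem_of {G : Type} [Group G] {xs : List G} {K : Subgroup G} {w : List ℕ} (h : ∀ g ∈ w, xs.getD g 1 ∈ K) :
    ev xs w ∈ K := by
  induction w with
  | nil => exact one_mem K
  | cons g w ih => rw [ev_cons]; exact mul_mem (h g List.mem_cons_self) (ih fun g hg => h g (List.mem_cons_of_mem _ hg))
def q_t : Qd := ⟨[4], [2, 0, 3, 2, 4, 3], [0, 2, 0, 2, 0, 3, 0, 2, 0, 3, 0, 3, 0, 2, 0, 2, 0, 3, 0, 2, 0, 3, 0, 3], 5⟩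
def q_tx : Qd := ⟨[4, 0], [4, 3, 0, 2, 0, 3, 4, 3, 4, 2, 0, 3, 0, 2, 4, 3], [0], 7⟩
def q_ts1 : Qd := ⟨[4, 0, 2, 0, 2, 0, 3, 0, 3, 0, 2, 0, 2, 0, 2, 2, 0, 2, 0, 3, 0, 3, 0, 2, 0, 2, 0, 2, 0, 2, 0, 2, 0, 3, 0, 3, 0, 2, 0, 2, 0, 2, 0, 3, 0, 3, 0, 3, 0, 2, 0, 2, 0, 3, 0, 3, 0, 2, 0, 2, 0, 3, 0, 3, 0, 2, 0, 2, 0, 2, 0, 3, 0, 3, 0, 3, 0, 2, 0, 2, 0, 3, 0, 3, 0, 2, 0, 2, 0, 3, 0, 3, 0, 2, 0, 2, 0, 2, 2, 0, 2, 0, 3, 0, 3, 0, 2, 0, 2, 0, 2, 0], [3, 3, 0, 3], [0], 5⟩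
def q_ts2 : Qd := ⟨[4, 0, 2, 0, 2, 0, 3, 0, 3, 0, 2, 0, 2, 0, 2, 2, 0, 2, 0, 3, 0, 3, 0, 2, 0, 2, 0, 2, 0, 2, 0, 2, 0, 3, 0, 3, 0, 2, 0, 2, 0, 2, 0, 3, 0, 3, 0, 3, 0, 2, 0, 2, 0, 3, 0, 3, 0, 2, 0, 2, 0, 3, 0, 3, 0, 2, 0, 2, 0, 2, 0, 3, 0, 3, 0, 3, 0, 2, 0, 2, 0, 3, 0, 3, 0, 2, 0, 2, 0, 3, 0, 3, 0, 2, 0, 2, 0, 2, 2, 0, 2, 0, 3, 0, 3, 0, 2, 0, 2, 0, 2, 0, 2, 0, 2, 0, 3, 0, 3, 0, 2, 0, 2, 0, 2], [], [0, 2, 0, 2, 0, 3, 0, 2, 0, 3, 0, 3, 0, 2, 0, 2, 0, 3, 0, 2, 0, 3, 0, 3], 2⟩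
def q_g : Qd := ⟨[2, 0, 2, 0, 2, 0, 2, 2, 0, 2, 0, 2, 0, 2, 2, 0, 2, 0, 2, 0, 2, 4, 3, 3, 0, 3, 0, 3, 0, 3, 0, 3, 0, 3, 0, 3, 3, 0, 3, 0, 3, 0, 4, 0, 2, 0, 2, 0, 2, 2, 0, 2, 0, 2, 0, 2, 0, 2, 0, 2, 0, 2, 2], [2, 0, 3], [0], 5⟩
def s1 : List ℕ := [0, 2, 0, 2, 0, 3, 0, 3, 0, 2, 0, 2, 0, 2, 2, 0, 2, 0, 3, 0, 3, 0, 2, 0, 2, 0, 2, 0, 2, 0, 2, 0, 3, 0, 3, 0, 2, 0, 2, 0, 2, 0, 3, 0, 3, 0, 3, 0, 2, 0, 2, 0, 3, 0, 3, 0, 2, 0, 2, 0, 3, 0, 3, 0, 2, 0, 2, 0, 2, 0, 3, 0, 3, 0, 3, 0, 2, 0, 2, 0, 3, 0, 3, 0, 2, 0, 2, 0, 3, 0, 3, 0, 2, 0, 2, 0, 2, 2, 0, 2, 0, 3, 0, 3, 0, 2, 0, 2, 0, 2, 0]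
def s2 : List ℕ := [0, 2, 0, 2, 0, 3, 0, 3, 0, 2, 0, 2, 0, 2, 2, 0, 2, 0, 3, 0, 3, 0, 2, 0, 2, 0, 2, 0, 2, 0, 2, 0, 3, 0, 3, 0, 2, 0, 2, 0, 2, 0, 3, 0, 3, 0, 3, 0, 2, 0, 2, 0, 3, 0, 3, 0, 2, 0, 2, 0, 3, 0, 3, 0, 2, 0, 2, 0, 2, 0, 3, 0, 3, 0, 3, 0, 2, 0, 2, 0, 3, 0, 3, 0, 2, 0, 2, 0, 3, 0, 3, 0, 2, 0, 2, 0, 2, 2, 0, 2, 0, 3, 0, 3, 0, 2, 0, 2, 0, 2, 0, 2, 0, 2, 0, 3, 0, 3, 0, 2, 0, 2, 0, 2]
def su : List ℕ := [2, 0, 2, 0, 3, 0, 3, 0, 2, 0, 2, 0, 2]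
def u1 : List ℕ := [0, 1, 0, 2, 0, 1, 0, 2, 0, 1, 1, 0, 1, 0, 1, 1]
def u2 : List ℕ := [0, 1, 1, 0, 2, 0, 1, 0, 2, 0, 1, 0, 1, 1, 0, 1, 1]
def wv : List ℕ := [0, 2, 0, 2, 0, 2, 2, 0, 2, 0, 2, 0, 2, 0, 2, 0, 2, 0, 2, 2]
def wA : List ℕ := [2, 0, 2, 0, 2, 0, 2, 2, 0, 2, 0, 2, 0, 2, 2, 0, 2, 0, 2, 0, 2]
def uL : List (List ℕ) := [[0], su, iw su]
theorem ok_t : q_t.ok = true := by decide +kernel
theorem ok_tx : q_tx.ok = true := by decide +kernel
theorem ok_ts1 : q_ts1.ok = true := by decide +kernel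
theorem ok_ts2 : q_ts2.ok = true := by decide +kernel
theorem ok_g : q_g.ok = true := by decide +kernel
theorem ok_K : ∀ w ∈ jR, w.all (· < 4) = true → kw w = true := fun w h h' => by
  rw [kw, h', Bool.true_and]; exact c1 w h
theorem k1 : kw (s1 ++ s1) = true := by decide +kernel
theorem k2 : kw (s2 ++ s2) = true := by decide +kernel
theorem k3 : kw (s1 ++ s2 ++ iw su) = true := by decide +kernel
theorem k4 : kw (pwW 4 su) = true := by decide +kernel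
theorem k5 : kw (iw (expand uL u1) ++ (wv ++ wA) ++ expand uL u2 ++ iw wv) = true := by decide +kernel
theorem k6 : kw (iw (expand uL u2) ++ iw wv ++ expand uL u1 ++ (wv ++ wA)) = true := by decide +kernel

variable {Γ : Type} [Group Γ] {σ : Γ →* J4} {a b c : Γ}

/-- lifts of the generators -/
structure Lf (σ : Γ →* J4) (a b c : Γ) : Prop where
  cen : σ.ker ≤ center Γ
  ha : σ a = jx
  hb : σ b = jy
  hc : σ c = jt
  inj : ∀ g ∈ cl [a, b], σ g = 1 → g = 1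

theorem Lf.ker (L : Lf σ a b c) {w : List ℕ} (h : w1 w = true) : ev (LX a b c) w ∈ σ.ker := by
  rw [MonoidHom.mem_ker, ← ev_map, ← word_one h]
  simp only [LX, List.map_cons, List.map_nil, map_inv, L.ha, L.hb, L.hc]
theorem Lf.one (L : Lf σ a b c) {w : List ℕ} (h : kw w = true) : ev (LX a b c) w = 1 := by
  rw [kw, Bool.and_eq_true, List.all_eq_true] at h
  refine L.inj _ (ev_mem_of fun g hg => ?_) (L.ker h.2)
  have := of_decide_eq_true (h.1 g hg)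
  have ha : a ∈ cl [a, b] := mem_cl (by simp)
  have hb : b ∈ cl [a, b] := mem_cl (by simp)
  interval_cases g
  exacts [ha, inv_mem ha, hb, inv_mem hb]
theorem Lf.sq (L : Lf σ a b c) (hZ : ∀ z ∈ σ.ker, z * z = 1) {q : Qd} (h : q.ok = true) :
    ev (LX a b c) q.a * ev (LX a b c) q.a = 1 := by
  simp only [Qd.ok, Bool.and_eq_true] at h
  have h1 := L.one h.1.1
  have h2 := L.ker h.1.2
  have h3 := L.ker h.2
  rw [ev_pwW, ev_append, ev_append, ev_append, ev_iw] at h3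
  rw [ev_append] at h1 h2
  refine odd_lift L.cen hZ ?_ h2 h3
  calc _ = ev (LX a b c) q.h * (ev (LX a b c) q.k * ev (LX a b c) q.k) * (ev (LX a b c) q.h)⁻¹ := by group
    _ = 1 := by rw [h1]; simp

theorem ex_lf [Finite Γ] (hs : Function.Surjective σ) (hc : σ.ker ≤ center Γ) : ∃ a b c, Lf σ a b c := by
  obtain ⟨e⟩ := H7.J4.main
  let K := (cl [jx, jy]).comap σ
  let τ : K →* MM := e.toMonoidHom.comp (σ.subgroupComap _)
  have h1 : Function.Surjective τ := e.surjective.comp (σ.subgroupComap_surjective_of_surjective _ hs)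
  have h0 : ∀ g : K, τ g = 1 ↔ σ g = 1 := fun g => by
    rw [MonoidHom.comp_apply, MulEquiv.coe_toMonoidHom, map_eq_one_iff _ e.injective, Subtype.ext_iff]; rfl
  have h2 := H8.mult_eq_bot_of_hasSchur_one Cfsg.Agent.S2038.result h1 fun z hz =>
    mem_center_iff.2 fun g => Subtype.ext (mem_center_iff.1 (hc ((h0 z).1 hz)) g)
  have h3 : (commutator K).map τ = ⊤ := by
    rw [map_commutator_eq, MonoidHom.range_eq_top.2 h1, eq_top_iff]
    intro g _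
    change g ∈ commutator MM
    rw [← Abelianization.ker_of]
    exact triv (mN_eq ▸ mN_rels) (mN_eq ▸ mN_top) _ (Commute.all _ _) g
  obtain ⟨a, ha, ea⟩ := h3.ge (mem_top (e ⟨jx, mem_cl (by simp)⟩))
  obtain ⟨b, hb, eb⟩ := h3.ge (mem_top (e ⟨jy, mem_cl (by simp)⟩))
  obtain ⟨c, ec⟩ := hs jt
  refine ⟨a, b, c, hc, congrArg Subtype.val (e.injective ea), congrArg Subtype.val (e.injective eb), ec, fun g hg h => ?_⟩
  obtain ⟨k, hk, rfl⟩ := cl_le (H := (commutator K).map K.subtype) (by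
    simp only [List.forall_mem_cons]; exact ⟨⟨a, ha, rfl⟩, ⟨b, hb, rfl⟩, by simp⟩) hg
  exact congrArg Subtype.val (mem_bot.1 (h2.le ⟨(h0 k).2 h, hk⟩))

theorem Lf.split (L : Lf σ a b c) (hσ : IsStemExtension σ) (h8 : c * c = 1) (h9 : Commute c (ev (LX a b c) su))
    (h10 : Commute c a) (h11 : (b * (ev (LX a b c) [0, 2, 0, 3, 0, 2, 0, 3] * c * ev (LX a b c) [2, 0, 3, 0, 2, 0, 3, 0])) ^ 3 = 1)
    (h12 : ev (LX a b c) q_g.a * ev (LX a b c) q_g.a = 1) : σ.ker = ⊥ := by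
  have hA : a⁻¹ = a := inv_eq_of_mul_eq_one_right (by
    simpa [ev_cons, ev_nil, LX] using L.one (w := [0, 0]) (by decide +kernel))
  have hX : LX a b c = [a, a, b, b⁻¹, c, c] := by rw [LX, hA, inv_eq_of_mul_eq_one_right h8]
  have nm : ∀ w, ev (LX a b c) w = ev (LX a b c) (w.map fun g => if g = 1 then 0 else if g = 5 then 4 else g) := fun w => by
    induction w with
    | nil => rfl
    | cons g w ih =>
      rw [List.map_cons, ev_cons, ev_cons, ← ih, hX]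
      split_ifs with h1 h2
      · rw [h1]; rfl
      · rw [h2]; rfl
      · rfl
  obtain ⟨φ, hφ⟩ := jB.hom (ys := LX a b c) rfl fun w hw => by
    rcases (by decide +kernel : ∀ w ∈ jR, w.all (· < 4) = true ∨ w.map (fun g => if g = 1 then 0 else if g = 5 then 4 else g) ∈
      [[4, 4], 4 :: ((iw su).map (fun g => if g = 1 then 0 else if g = 5 then 4 else g) ++ 4 :: su), [4, 0, 4, 0],
        pwW 3 (2 :: ([0, 2, 0, 3, 0, 2, 0, 3] ++ 4 :: [2, 0, 3, 0, 2, 0, 3, 0])), q_g.a ++ q_g.a]) w hw with h | h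
    · exact L.one (ok_K w hw h)
    rw [nm]
    simp only [List.mem_cons, List.not_mem_nil, or_false] at h
    have e4 : (LX a b c).getD 4 1 = c := rfl
    rcases h with h | h | h | h | h <;> rw [h]
    · simpa [ev_cons, ev_nil, LX] using h8
    · rw [ev_cons, ev_append, ev_cons, ← nm, ev_iw, e4, h9.eq, inv_mul_cancel_left, h8]
    · simp only [ev_cons, ev_nil, hX, List.getD_cons_zero, List.getD_cons_succ, mul_one]
      rw [← mul_assoc a, ← h10.eq, mul_assoc, mul_eq_one_iff_eq_inv.2 hA.symm, mul_one, h8]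
    · rw [ev_pwW, ev_cons, ev_append, ev_cons _ 4, e4, ← mul_assoc (ev _ _)]; exact h11
    · rw [ev_append, h12]
  have h1 : σ.comp φ = MonoidHom.id _ := PresentedGroup.ext fun g => by
    simp only [gensP, jL, LX, List.map_cons, List.map_nil, cond_true, List.cons.injEq] at hφ
    cases g
    exacts [(congrArg σ hφ.1).trans L.ha, (congrArg σ hφ.2.2.1).trans L.hb, (congrArg σ hφ.2.2.2.2.1).trans L.hc]
  refine eq_bot_iff.2 fun z hz => ?_
  obtain ⟨g, rfl⟩ := H8.surjective_of_over_stem Function.surjective_id hσ h1 z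
  rw [mem_bot, show g = 1 from (DFunLike.congr_fun h1 g).symm.trans hz, map_one]

theorem Lf.mul (L : Lf σ a b c) {z : Γ} (hz : z ∈ σ.ker) : Lf σ a b (c * z) :=
  ⟨L.cen, L.ha, L.hb, by rw [map_mul, L.hc, show σ z = 1 from hz, mul_one], L.inj⟩
theorem Lf.b3 (L : Lf σ a b c) : b * (b * b) = 1 := by
  simpa [ev_cons, ev_nil, LX] using L.one (w := [2, 2, 2]) (by decide +kernel)
theorem Lf.pq (L : Lf σ a b c) :
    ev (LX a b c) [0, 2, 0, 3, 0, 2, 0, 3] = (ev (LX a b c) [2, 0, 3, 0, 2, 0, 3, 0])⁻¹ := by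
  have := L.one (w := [0, 2, 0, 3, 0, 2, 0, 3] ++ [2, 0, 3, 0, 2, 0, 3, 0]) (by decide +kernel)
  rw [ev_append] at this
  exact eq_inv_of_mul_eq_one_left this
theorem Lf.r1 (L : Lf σ a b c) :
    (b * (ev (LX a b c) [0, 2, 0, 3, 0, 2, 0, 3] * c * ev (LX a b c) [2, 0, 3, 0, 2, 0, 3, 0])) ^ 3 ∈ σ.ker := by
  have := L.ker (w := pwW 3 (2 :: ([0, 2, 0, 3, 0, 2, 0, 3] ++ 4 :: [2, 0, 3, 0, 2, 0, 3, 0]))) (by decide +kernel)
  rwa [ev_pwW, ev_cons, ev_append, ev_cons _ 4, ← mul_assoc (ev _ _)] at this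
theorem cm_of {s t : Γ} (hs : s * s = 1) (ht : t * t = 1) (h : t * s * (t * s) = 1) : Commute t s := by
  have := eq_inv_of_mul_eq_one_left h
  rwa [mul_inv_rev, inv_eq_of_mul_eq_one_right hs, inv_eq_of_mul_eq_one_right ht] at this

theorem two [Finite Γ] (hσ : IsStemExtension σ) (hZ : ∀ z ∈ σ.ker, z * z = 1) : σ.ker = ⊥ := by
  obtain ⟨a, b, c, L0⟩ := ex_lf hσ.1 hσ.2.1
  have hβ := L0.r1
  have L := L0.mul hβ
  have e : ∀ w : List ℕ, (∀ g ∈ w, g < 4) → ∀ d, ev (LX a b d) w = ev (LX a b c) w := fun w hw d => by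
    induction w with
    | nil => rfl
    | cons g w ih =>
      rw [ev_cons, ev_cons, ih fun g hg => hw g (List.mem_cons_of_mem _ hg)]
      have := hw g List.mem_cons_self
      interval_cases g <;> rfl
  have h11 : ∀ z ∈ σ.ker, (b * (ev (LX a b (c * z)) [0, 2, 0, 3, 0, 2, 0, 3] * (c * z) *
      ev (LX a b (c * z)) [2, 0, 3, 0, 2, 0, 3, 0])) ^ 3 =
      (b * (ev (LX a b c) [0, 2, 0, 3, 0, 2, 0, 3] * c * ev (LX a b c) [2, 0, 3, 0, 2, 0, 3, 0])) ^ 3 * z := by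
    intro z hz
    have c1 := mem_center_iff.1 (hσ.2.1 hz)
    rw [e _ (by decide), e [2, 0, 3, 0, 2, 0, 3, 0] (by decide), ← mul_assoc _ c, mul_assoc _ z, ← c1, ← mul_assoc,
      ← mul_assoc, Commute.mul_pow (c1 _), pow_succ z, sq, hZ z hz, one_mul, mul_assoc b]
  have h11' := (h11 _ hβ).trans (hZ _ hβ)
  generalize c * _ = d at L h11'
  have h8 : d * d = 1 := by simpa [q_t, ev_single, LX] using L.sq hZ ok_t
  have ha : a * a = 1 := by simpa [ev_cons, ev_nil, LX] using L.one (w := [0, 0]) (by decide +kernel)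
  have a1 := L.one k1
  have a2 := L.one k2
  have a3 := L.one k3
  have b1 := L.sq hZ ok_ts1
  have b2 := L.sq hZ ok_ts2
  rw [show q_ts1.a = 4 :: s1 from rfl, ev_cons] at b1
  rw [show q_ts2.a = 4 :: s2 from rfl, ev_cons] at b2
  rw [ev_append] at a1 a2
  rw [ev_append, ev_append, ev_iw, mul_inv_eq_one] at a3
  exact L.split hσ h8 (a3 ▸ (cm_of a1 h8 b1).mul_right (cm_of a2 h8 b2))
    (cm_of ha h8 (by simpa [q_tx, ev_cons, ev_nil, LX] using L.sq hZ ok_tx)) h11' (L.sq hZ ok_g)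

theorem cm_odd {s t : Γ} (hc : σ.ker ≤ center Γ) (hZ : ∀ z ∈ σ.ker, z * z = 1 → z = 1) (hs : s ^ 4 = 1)
    (h : t⁻¹ * s⁻¹ * t * s ∈ σ.ker) : Commute t s := by
  have c1 := mem_center_iff.1 (hc h)
  have h1 : t⁻¹ * s⁻¹ * t⁻¹⁻¹ = s⁻¹ * (t⁻¹ * s⁻¹ * t * s) := by rw [c1]; group
  have h2 := congrArg (· ^ 4) h1
  simp only [conj_pow] at h2
  rw [Commute.mul_pow (c1 _), inv_pow, hs, inv_one, mul_one, mul_inv_cancel, one_mul, show 4 = 2 + 2 from rfl,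
    pow_add, sq] at h2
  have h3 := hZ _ h (hZ _ (mul_mem h h) h2.symm)
  calc t * s = s * t * (t⁻¹ * s⁻¹ * t * s) := by group
    _ = s * t := by rw [h3, mul_one]

theorem odd [Finite Γ] (hσ : IsStemExtension σ) (hZ : ∀ z ∈ σ.ker, z * z = 1 → z = 1) : σ.ker = ⊥ := by
  obtain ⟨a, b, c0, L0⟩ := ex_lf hσ.1 hσ.2.1
  have hc := fun z hz => mem_center_iff.1 (hσ.2.1 (x := z) hz)
  have hsq : Function.Surjective fun z : σ.ker => z * z := Finite.surjective_of_injective fun y z h => by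
    have h' : (y : Γ) * y = z * z := congrArg Subtype.val h
    refine Subtype.ext (mul_inv_eq_one.1 (hZ _ (mul_mem y.2 (inv_mem z.2)) ?_))
    rw [← mul_assoc, mul_assoc _ _ (y : Γ), hc _ y.2 (z : Γ)⁻¹, ← mul_assoc, h']; group
  have h0 : c0 * c0 ∈ σ.ker := by simpa [ev_cons, ev_nil, LX] using L0.ker (w := [4, 4]) (by decide +kernel)
  obtain ⟨z, hz⟩ := hsq ⟨_, inv_mem h0⟩
  have L := L0.mul z.2
  have h8 : c0 * z * (c0 * z) = 1 := by
    have h' : (z : Γ) * z = (c0 * c0)⁻¹ := congrArg Subtype.val hz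
    rw [mul_assoc, ← mul_assoc (z : Γ), ← hc _ z.2 c0, mul_assoc c0, h']; group
  generalize c0 * z = c at L h8
  have hC : c⁻¹ = c := inv_eq_of_mul_eq_one_right h8
  have h10 : Commute c a := cm_odd hσ.2.1 hZ
    (by simpa [ev_cons, ev_nil, LX, pow_succ, mul_assoc] using L.one (w := [0, 0, 0, 0]) (by decide +kernel))
    (by simpa [ev_cons, ev_nil, LX, mul_assoc] using L.ker (w := [5, 1, 4, 0]) (by decide +kernel))
  have h9 : Commute c (ev (LX a b c) su) := cm_odd hσ.2.1 hZ (ev_pwW (LX a b c) 4 su ▸ L.one k4) (by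
    have := L.ker (w := 5 :: (iw su ++ 4 :: su)) (by decide +kernel)
    rwa [ev_cons, ev_append, ev_cons, ev_iw, ← mul_assoc, ← mul_assoc] at this)
  refine L.split hσ h8 h9 h10 ?_ ?_
  · have h1 := L.r1
    have h3 := L.b3
    rw [L.pq] at h1 ⊢
    generalize ev (LX a b c) [2, 0, 3, 0, 2, 0, 3, 0] = w at h1 ⊢
    have hT : w⁻¹ * c * w * (w⁻¹ * c * w) = 1 := by
      calc _ = w⁻¹ * (c * c) * w := by group
        _ = 1 := by rw [h8]; simp
    generalize w⁻¹ * c * w = T at h1 hT ⊢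
    have hTi : T⁻¹ = T := inv_eq_of_mul_eq_one_right hT
    have hb : b⁻¹ = b * b := inv_eq_of_mul_eq_one_right h3
    have c1 := hc _ h1
    generalize hβ : (b * T) ^ 3 = β at h1 c1 ⊢
    have e1 : b * T * b⁻¹ * (b⁻¹ * T * b) = β * T := by
      rw [← hβ]
      calc _ = b * T * (b⁻¹ * b⁻¹) * T * b * 1 := by group
        _ = b * T * b * T * b * (T * T) := by
          rw [hT, show b⁻¹ * b⁻¹ = b from by rw [← mul_inv_rev, inv_eq_of_mul_eq_one_left h3]]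
        _ = _ := by simp only [pow_succ]; group
    have hA : b * T * b⁻¹ * (b * T * b⁻¹) = 1 := by
      calc _ = b * (T * T) * b⁻¹ := by group
        _ = 1 := by rw [hT]; simp
    have hB : b⁻¹ * T * b * (b⁻¹ * T * b) = 1 := by
      calc _ = b⁻¹ * (T * T) * b := by group
        _ = 1 := by rw [hT]; simp
    generalize b * T * b⁻¹ = A at e1 hA
    generalize b⁻¹ * T * b = B at e1 hB
    have e2 : A * B * (A * B) = β * β := by rw [e1, mul_assoc, ← mul_assoc T, c1 T, mul_assoc β T, hT, mul_one]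
    have e3 : β * β * (β * β) = 1 := by
      have e4 : A * (β * β) * A = β * β := by rw [hc _ (mul_mem h1 h1) A, mul_assoc, hA, mul_one]
      calc _ = A * (β * β) * A * (β * β) := by rw [e4]
        _ = (A * A) * B * A * B * (A * A) * B * A * B := by rw [← e2]; group
        _ = B * A * (B * B) * A * B := by rw [hA]; group
        _ = B * (A * A) * B := by rw [hB]; group
        _ = 1 := by rw [hA, mul_one, hB]
    exact hZ _ h1 (hZ _ (mul_mem h1 h1) e3)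
  · have h1 := L.ker (w := q_g.a ++ q_g.a) (by decide +kernel)
    have a5 := L.one k5
    have a6 := L.one k6
    have hm : ∀ w, Commute c (ev (LX a b c) (expand uL w)) := fun w => by
      rw [← ev_expand]
      refine mem_centralizer_singleton_iff.1 (ev_mem (H := centralizer {c}) ?_ w) |>.symm
      simp only [uL, List.map_cons, List.map_nil, List.forall_mem_cons, ev_iw, mem_centralizer_singleton_iff]
      exact ⟨by rw [ev_single]; exact h10.symm, h9.symm, h9.symm.inv_left, by simp⟩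
    have e0 : ev (LX a b c) q_g.a = ev (LX a b c) wA * (c * ((ev (LX a b c) wv)⁻¹ * (c * ev (LX a b c) wv))) := by
      have hA : ev (LX a b c) ((iw wv).map fun g => if g = 1 then 0 else g) = (ev (LX a b c) wv)⁻¹ := by
        have := L.one (w := ((iw wv).map fun g => if g = 1 then 0 else g) ++ wv) (by decide +kernel)
        rw [ev_append] at this
        exact eq_inv_of_mul_eq_one_left this
      rw [show q_g.a = wA ++ 4 :: (((iw wv).map fun g => if g = 1 then 0 else g) ++ 4 :: wv) by decide +kernel,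
        ev_append, ev_cons, ev_append, ev_cons, hA]; rfl
    simp only [ev_append, ev_iw] at h1 a5 a6
    rw [e0] at h1 ⊢
    have m1 := hm u1
    have m2 := hm u2
    generalize ev (LX a b c) (expand uL u1) = p at *
    generalize ev (LX a b c) (expand uL u2) = q at *
    generalize ev (LX a b c) wv = v at *
    generalize ev (LX a b c) wA = A at *
    have c1 := hc _ h1
    refine hZ _ h1 ?_
    have f1 : v = p⁻¹ * (v * A) * q := (mul_inv_eq_one.1 a5).symm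
    have f2 : (v * A)⁻¹ = q⁻¹ * v⁻¹ * p := (eq_inv_of_mul_eq_one_left a6).symm
    have f3 : v * c * (v * A)⁻¹ * c = p⁻¹ * (v * (A * (c * (v⁻¹ * (c * v)))) * v⁻¹) * p := by
      calc _ = p⁻¹ * (v * A) * q * c * (q⁻¹ * v⁻¹ * p) * c := by rw [← f1, f2]
        _ = p⁻¹ * (v * A) * (q * c * q⁻¹) * v⁻¹ * (p * c * p⁻¹) * p := by group
        _ = _ := by rw [← m1.eq, ← m2.eq]; group
    have f4 : v * c * (v * A)⁻¹ * c = c * v * (A * (c * (v⁻¹ * (c * v))))⁻¹ * (c * v)⁻¹ := by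
      simp only [mul_inv_rev, hC, inv_inv, mul_assoc, mul_inv_cancel_left]
      rw [← mul_assoc c c, h8, one_mul]
    generalize A * (c * (v⁻¹ * (c * v))) = g at *
    have f5 : p⁻¹ * v * (g * g) * (p⁻¹ * v)⁻¹ = c * v * (g * g)⁻¹ * (c * v)⁻¹ := by
      calc _ = (p⁻¹ * (v * g * v⁻¹) * p) * (p⁻¹ * (v * g * v⁻¹) * p) := by group
        _ = _ := by rw [← f3, f4]; group
    rw [c1, mul_inv_cancel_right, hc _ (inv_mem h1), mul_inv_cancel_right] at f5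
    exact mul_eq_one_iff_eq_inv.2 f5

theorem schur : HasCyclicSchurMultiplier J4 1 := by
  have : Finite J4 := Nat.finite_of_card_ne_zero (by rw [H7.JD.j_main.2.1.2]; norm_num)
  refine H8.hasSchur_one_iff.2 fun Γ _ _ σ hσ => odd hσ fun z hz hz2 => ?_
  have hc := fun z hz => mem_center_iff.1 (hσ.2.1 (x := z) hz)
  let S : Subgroup Γ := ⟨⟨⟨{g | ∃ y ∈ σ.ker, y * y = g}, by
    rintro _ _ ⟨y, hy, rfl⟩ ⟨x, hx, rfl⟩
    exact ⟨y * x, mul_mem hy hx, by rw [mul_assoc, ← mul_assoc x, hc _ hy x]; group⟩⟩, ⟨1, one_mem _, mul_one 1⟩⟩, by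
    rintro _ ⟨y, hy, rfl⟩
    exact ⟨y⁻¹, inv_mem hy, by group⟩⟩
  have hS : S ≤ σ.ker := by rintro _ ⟨y, hy, rfl⟩; exact mul_mem hy hy
  have : S.Normal := ⟨fun n hn g => by rw [hc _ (hS hn) g, mul_inv_cancel_right]; exact hn⟩
  let τ : Γ ⧸ S →* J4 := QuotientGroup.lift S σ hS
  have hk : ∀ q ∈ τ.ker, ∃ y ∈ σ.ker, q = (y : Γ ⧸ S) := fun q hq => by
    obtain ⟨y, rfl⟩ := QuotientGroup.mk_surjective q
    exact ⟨y, hq, rfl⟩
  have h2 := two (σ := τ) ⟨fun g => let ⟨y, hy⟩ := hσ.1 g; ⟨y, hy⟩, fun q hq => by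
      obtain ⟨y, hy, rfl⟩ := hk q hq
      refine mem_center_iff.2 fun g => ?_
      obtain ⟨g, rfl⟩ := QuotientGroup.mk_surjective g
      exact congrArg QuotientGroup.mk (hc y hy g), fun q hq => by
      obtain ⟨y, hy, rfl⟩ := hk q hq
      have := mem_map_of_mem (QuotientGroup.mk' S) (hσ.2.2 hy)
      rw [map_commutator_eq] at this
      exact commutator_mono le_top le_top this⟩ fun q hq => by
      obtain ⟨y, hy, rfl⟩ := hk q hq
      exact (QuotientGroup.eq_one_iff _).2 ⟨y, hy, rfl⟩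
  have hsq : Function.Injective fun z : σ.ker => z * z := Finite.injective_iff_surjective.2 fun y => by
    obtain ⟨x, hx, h⟩ := (QuotientGroup.eq_one_iff (N := S) _).1 (mem_bot.1 (h2.le (show ((y : Γ) : Γ ⧸ S) ∈ τ.ker from y.2)))
    exact ⟨⟨x, hx⟩, Subtype.ext h⟩
  exact congrArg Subtype.val (hsq (a₁ := ⟨z, hz⟩) (a₂ := 1) (Subtype.ext (hz2.trans (mul_one 1).symm)))

end H7.JS
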